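import Cfsg.Agent.H63.AnDefs2

/-!
# AN-W7B: the diagonal in `A₇ × A₇`
-/

set_option autoImplicit false

namespace Cfsg.Agent.H34.W7b

open Cfsg Cfsg.Agent.H63 Cfsg.Agent.H63.AN Subgroup
open Cfsg.Agent.H7.AA (ev d2 Acts KA NA)
open Equiv (swap Perm)
open Equiv.Perm (sign)

universe u

section Prod

variable {S : Type*} [Group S] [IsSimpleGroup S] (hc : ∀ z : S, (∀ s, z * s = s * z) → z = 1)
include hc

theorem one_or (a c : S →* S) (h1 : ∀ s s', Commute (a s) (c s'))
    (h2 : ∀ z, ∃ s s', z = a s * c s') : (∀ s, a s = 1) ∨ ∀ s, c s = 1 := by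
  have hn : a.range.Normal := ⟨by
    rintro _ ⟨r, rfl⟩ z
    obtain ⟨s, s', rfl⟩ := h2 z
    refine ⟨s * r * s⁻¹, ?_⟩
    rw [map_mul, map_mul, map_inv, mul_assoc (a s) (c s'), ← (h1 r s').eq]
    group⟩
  rcases hn.eq_bot_or_eq_top with h | h
  · exact Or.inl fun s => mem_bot.1 (h ▸ ⟨s, rfl⟩)
  · refine Or.inr fun s => hc _ fun z => ?_
    obtain ⟨r, rfl⟩ : z ∈ a.range := h ▸ mem_top z
    exact (h1 r s).eq.symm

theorem aut_prod (θ : MulAut (S × S)) : (∀ s, (θ (s, 1)).2 = 1 ∧ (θ (1, s)).1 = 1) ∨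
    ∀ s, (θ (s, 1)).1 = 1 ∧ (θ (1, s)).2 = 1 := by
  have c : ∀ s s' : S, Commute (θ (s, 1)) (θ (1, s')) := fun s s' =>
    (show Commute ((s, 1) : S × S) (1, s') from Prod.ext (by simp) (by simp)).map θ
  have d : ∀ y : S × S, ∃ s s', y = θ (s, 1) * θ (1, s') := fun y => by
    obtain ⟨⟨s, s'⟩, rfl⟩ := θ.surjective y
    exact ⟨s, s', by rw [← map_mul]; simp⟩
  have h1 := one_or hc ((MonoidHom.fst S S).comp (θ.toMonoidHom.comp (MonoidHom.inl S S)))
    ((MonoidHom.fst S S).comp (θ.toMonoidHom.comp (MonoidHom.inr S S)))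
    (fun s s' => (c s s').map (MonoidHom.fst S S)) fun z => by
      obtain ⟨s, s', e⟩ := d (z, 1)
      exact ⟨s, s', congrArg Prod.fst e⟩
  have h2 := one_or hc ((MonoidHom.snd S S).comp (θ.toMonoidHom.comp (MonoidHom.inl S S)))
    ((MonoidHom.snd S S).comp (θ.toMonoidHom.comp (MonoidHom.inr S S)))
    (fun s s' => (c s s').map (MonoidHom.snd S S)) fun z => by
      obtain ⟨s, s', e⟩ := d (1, z)
      exact ⟨s, s', congrArg Prod.snd e⟩
  obtain ⟨z, hz⟩ := exists_ne (1 : S)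
  rcases h1 with h1 | h1 <;> rcases h2 with h2 | h2
  · have e : θ (z, 1) = θ 1 := by rw [map_one]; exact Prod.ext (h1 z) (h2 z)
    exact (hz (congrArg Prod.fst (θ.injective e))).elim
  · exact Or.inr fun s => ⟨h1 s, h2 s⟩
  · exact Or.inl fun s => ⟨h2 s, h1 s⟩
  · have e : θ (1, z) = θ 1 := by rw [map_one]; exact Prod.ext (h1 z) (h2 z)
    exact (hz (congrArg Prod.snd (θ.injective e))).elim

theorem fix_prod (θ : MulAut (S × S)) : ((∀ s, (θ (s, 1)).2 = 1 ∧ (θ (1, s)).1 = 1) ∧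
    ∀ y, θ y = y → θ (y.1, 1) = (y.1, 1) ∧ θ (1, y.2) = (1, y.2)) ∨
    ∀ y, θ y = y → θ (y.1, 1) = (1, y.2) ∧ θ (1, y.2) = (y.1, 1) := by
  have d : ∀ y : S × S, θ y = θ (y.1, 1) * θ (1, y.2) := fun y => by rw [← map_mul]; simp
  rcases aut_prod hc θ with h | h
  · refine Or.inl ⟨h, fun y e => ⟨Prod.ext ?_ (h _).1, Prod.ext (h _).2 ?_⟩⟩
    · have := congrArg Prod.fst ((d y).symm.trans e)
      rwa [Prod.fst_mul, (h _).2, mul_one] at this
    · have := congrArg Prod.snd ((d y).symm.trans e)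
      rwa [Prod.snd_mul, (h _).1, one_mul] at this
  · refine Or.inr fun y e => ⟨Prod.ext (h _).1 ?_, Prod.ext ?_ (h _).2⟩
    · have := congrArg Prod.snd ((d y).symm.trans e)
      rwa [Prod.snd_mul, (h _).2, mul_one] at this
    · have := congrArg Prod.fst ((d y).symm.trans e)
      rwa [Prod.fst_mul, (h _).1, one_mul] at this

theorem no_one [Finite S] (θ τ : MulAut (S × S)) (w : S × S) (hw : w ≠ 1) (hθ : θ w = w)
    (h : ∀ y, θ (τ y) = τ (w * θ y * w⁻¹))
    (h1 : w.1 ≠ 1 → ∀ s, τ (s, 1) = (s, 1)) (h2 : w.2 ≠ 1 → ∀ s, τ (1, s) = (1, s)) : False := by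
  have c : ∀ y, τ y = y → τ (θ y) = θ y → w * θ y = θ y * w := fun y e1 e2 => by
    have := h y
    rw [e1, ← e2, τ.injective.eq_iff, e2] at this
    exact (eq_mul_inv_iff_mul_eq.1 this).symm
  have hw' : w.1 ≠ 1 ∨ w.2 ≠ 1 := by
    by_contra hh
    push Not at hh
    exact hw (Prod.ext hh.1 hh.2)
  rcases fix_prod hc θ with ⟨a, -⟩ | a
  · rcases hw' with b | b
    · have hi : Function.Injective fun s => (θ (s, 1)).1 := fun s s' e =>
        congrArg Prod.fst (θ.injective (Prod.ext e ((a s).1.trans (a s').1.symm)))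
      refine b (hc _ fun z => ?_)
      obtain ⟨s, rfl⟩ := Finite.surjective_of_injective hi z
      refine congrArg Prod.fst (c (s, 1) (h1 b s) ?_)
      rw [show θ (s, 1) = ((θ (s, 1)).1, 1) from Prod.ext rfl (a s).1, h1 b]
    · have hi : Function.Injective fun s => (θ (1, s)).2 := fun s s' e =>
        congrArg Prod.snd (θ.injective (Prod.ext ((a s).2.trans (a s').2.symm) e))
      refine b (hc _ fun z => ?_)
      obtain ⟨s, rfl⟩ := Finite.surjective_of_injective hi z
      refine congrArg Prod.snd (c (1, s) (h2 b s) ?_)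
      rw [show θ (1, s) = (1, (θ (1, s)).2) from Prod.ext (a s).2 rfl, h2 b]
  · obtain ⟨a1, a2⟩ := a w hθ
    have b1 : w.1 ≠ 1 := fun e => hw (Prod.ext e (by
      rw [e, show ((1, 1) : S × S) = 1 from rfl, map_one] at a1
      exact (congrArg Prod.snd a1).symm))
    have b2 : w.2 ≠ 1 := fun e => hw (Prod.ext (by
      rw [e, show ((1, 1) : S × S) = 1 from rfl, map_one] at a2
      exact (congrArg Prod.fst a2).symm) e)
    have t1 : ∀ y, τ y = y := fun y => by
      rw [show y = (y.1, 1) * (1, y.2) by simp, map_mul, h1 b1, h2 b2]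
    refine b1 (hc _ fun z => ?_)
    obtain ⟨y, e⟩ := θ.surjective (z, 1)
    have := congrArg Prod.fst (c y (t1 _) (t1 _))
    rwa [e] at this

end Prod

theorem w7b : W7bStmt.{u} := by
  intro G _ _ α _ _ χ t h ⟨e⟩
  let S := alternatingGroup (Fin 7)
  have : IsSimpleGroup S := alternatingGroup.isSimpleGroup (by simp)
  have : IsSimpleGroup (alternatingGroup α) := alternatingGroup.isSimpleGroup (by simp [h.seven])
  have hc : ∀ z : S, (∀ s, z * s = s * z) → z = 1 := fun z hz =>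
    mem_bot.1 (alternatingGroup.center_eq_bot (α := Fin 7) (by simp) ▸
      mem_center_iff.2 fun s => (hz s).symm)
  have hcard : Nat.card (alternatingGroup α) = Nat.card S :=
    Nat.card_congr (Equiv.altCongrHom (Fintype.equivFinOfCardEq h.seven)).toEquiv
  let ι : S × S →* G := (normalClosure (χ.range : Set G)).subtype.comp e.symm.toMonoidHom
  have hι : Function.Injective ι := Subtype.val_injective.comp e.symm.injective
  let θ : G → MulAut (S × S) := fun g => (e.symm.trans (MulAut.conjNormal g)).trans e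
  have hθ : ∀ g y, ι (θ g y) = g * ι y * g⁻¹ := fun g y =>
    congrArg Subtype.val (e.symm_apply_apply (MulAut.conjNormal g (e.symm y)))
  let x : alternatingGroup α →* S × S :=
    e.toMonoidHom.comp (χ.codRestrict _ fun σ => subset_normalClosure ⟨σ, rfl⟩)
  have hx : ∀ σ, ι (x σ) = χ σ := fun σ => congrArg Subtype.val (e.symm_apply_apply _)
  have hK : ∀ k ∈ KA χ, ∀ σ, θ k (x σ) = x σ := fun k hk σ => hι (by
    rw [hθ, hx, H7.AA.mem_KA.1 hk, mul_inv_cancel_right])
  have ti : t⁻¹ = t := inv_eq_of_mul_eq_one_right h.t2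
  let φ : alternatingGroup α →* G :=
    ι.comp ((MonoidHom.inl S S).comp ((MonoidHom.fst S S).comp x))
  have hφ : ∀ σ, φ σ = ι ((x σ).1, 1) := fun σ => rfl
  rcases fix_prod hc (θ t) with ⟨-, a⟩ | a
  · exfalso
    let f := (Fintype.equivFinOfCardEq h.seven).symm
    have nd : [f 0, f 1, f 2, f 3].Nodup := by simp
    obtain ⟨g, g1, g2⟩ := h.sw _ ⟨_, _, _, _, nd, rfl⟩
    have sg : sign (d2 (f 0) (f 1) (f 2) (f 3)) = 1 := H7.AA.sign_d2 (by simp) (by simp)
    rw [H7.AA.ev_of sg] at g1 g2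
    have hne : (⟨_, Equiv.Perm.mem_alternatingGroup.2 sg⟩ : alternatingGroup α) ≠ 1 := by
      intro e1
      have := congrArg (fun σ : alternatingGroup α => σ.1 (f 0)) e1
      simp [H7.AA.d2_apply, Equiv.swap_apply_of_ne_of_ne] at this
    generalize (⟨_, Equiv.Perm.mem_alternatingGroup.2 sg⟩ : alternatingGroup α) = σ at g1 g2 hne
    have sur : ∀ p : alternatingGroup α →* S, p σ ≠ 1 → Function.Surjective p := by
      intro p hp
      have hi : Function.Injective p := by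
        rcases p.normal_ker.eq_bot_or_eq_top with e1 | e1
        · exact (MonoidHom.ker_eq_bot_iff p).1 e1
        · exact (hp (MonoidHom.mem_ker.1 (e1 ▸ mem_top σ))).elim
      exact ((Nat.bijective_iff_injective_and_card p).2 ⟨hi, hcard⟩).2
    refine no_one hc (θ g) (θ t) (x σ) (fun e1 => hne (h.inj ?_)) (hι ?_) (fun y => hι ?_)
      (fun b s => ?_) fun b s => ?_
    · rw [← hx, e1, map_one, map_one]
    · rw [hθ, hx, g2.eq, mul_inv_cancel_right]
    · rw [hθ, hθ, hθ, map_mul, map_mul, map_inv, hθ, hx]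
      calc g * (t * ι y * t⁻¹) * g⁻¹
          = g * t * g⁻¹ * (g * ι y * g⁻¹) * (g * t * g⁻¹)⁻¹ := by group
        _ = _ := by rw [g1]; group
    · obtain ⟨ρ, rfl⟩ := sur ((MonoidHom.fst S S).comp x) b s
      exact (a _ (hK t h.tK ρ)).1
    · obtain ⟨ρ, rfl⟩ := sur ((MonoidHom.snd S S).comp x) b s
      exact (a _ (hK t h.tK ρ)).2
  · have e2 : ∀ σ, t * φ σ * t = ι (1, (x σ).2) := fun σ => by
      rw [← (a _ (hK t h.tK σ)).1, hθ, ti, hφ]
    refine ⟨φ, fun σ => ?_, fun σ τ => ?_, ?_, fun k hk _ ho σ => ?_⟩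
    · rw [e2, hφ, ← map_mul, ← hx]
      simp
    · rw [e2, hφ]
      exact (show Commute (((x σ).1, 1) : S × S) (1, (x τ).2) from
        Prod.ext (by simp) (by simp)).map ι
    · rintro _ ⟨σ, rfl⟩
      exact (e.symm _).2
    · have h2 : Commute (k ^ 2) (φ σ) := by
        have h3 : θ k (θ k ((x σ).1, 1)) = ((x σ).1, 1) := by
          rcases fix_prod hc (θ k) with ⟨-, b⟩ | b
          · rw [(b _ (hK k hk σ)).1, (b _ (hK k hk σ)).1]
          · rw [(b _ (hK k hk σ)).1, (b _ (hK k hk σ)).2]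
        have h4 := congrArg ι h3
        rw [hθ, hθ, ← hφ] at h4
        change _ * _ = _ * _
        rw [← mul_inv_eq_iff_eq_mul, pow_two]
        refine Eq.trans ?_ h4
        group
      obtain ⟨m, hm⟩ := ho
      have h5 : k = (k ^ 2) ^ (m + 1) := by
        rw [← pow_mul, show 2 * (m + 1) = orderOf k + 1 by omega, pow_succ, pow_orderOf_eq_one,
          one_mul]
      rw [h5]
      exact h2.pow_left _

end Cfsg.Agent.H34.W7b
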