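import Mathlib

/-!
# Abstract lemmas for C6-KODD
-/

set_option autoImplicit false

namespace Cfsg.Agent.H34.C6K

open scoped Pointwise

/-- joint eigenvectors with distinct characters are independent -/
theorem li_of_chars {F V ι H : Type*} [Field F] [AddCommGroup V] [Module F V]
    (f : H → V →ₗ[F] V) (v : ι → V) (χ : ι → H → F) (hv : ∀ i, v i ≠ 0)
    (he : ∀ i h, f h (v i) = χ i h • v i) (hχ : Function.Injective χ) :
    LinearIndependent F v := by
  classical
  rw [linearIndependent_iff']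
  intro s
  induction s using Finset.induction_on with
  | empty => intro g _ i hi; simp at hi
  | insert j s hj ih =>
    intro g hg
    rw [Finset.sum_insert hj] at hg
    have h0 : ∀ i ∈ s, g i = 0 := by
      intro i hi
      have hne : χ i ≠ χ j := fun e => hj (hχ e ▸ hi)
      obtain ⟨h, hh⟩ := Function.ne_iff.1 hne
      have h1 := congrArg (f h) hg
      rw [map_add, map_sum, map_zero, map_smul, he] at h1
      have h2 : ∑ i ∈ s, (g i * (χ i h - χ j h)) • v i = 0 := by
        have h3 : ∑ i ∈ s, (g i * (χ i h - χ j h)) • v i =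
            (g j • χ j h • v j + ∑ x ∈ s, f h (g x • v x)) -
              χ j h • (g j • v j + ∑ i ∈ s, g i • v i) := by
          rw [smul_add, Finset.smul_sum, smul_comm (χ j h) (g j), add_sub_add_left_eq_sub,
            ← Finset.sum_sub_distrib]
          refine Finset.sum_congr rfl fun x _ => ?_
          rw [map_smul, he, smul_smul, smul_smul, ← sub_smul]
          congr 1
          ring
        rw [h3, h1, hg, smul_zero, sub_zero]
      have h4 := ih _ h2 i hi
      exact (mul_eq_zero.1 h4).resolve_right (sub_ne_zero.2 hh)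
    intro i hi
    rcases Finset.mem_insert.1 hi with rfl | hi
    · rw [Finset.sum_eq_zero fun x hx => by rw [h0 x hx, zero_smul], add_zero] at hg
      exact (smul_eq_zero.1 hg).resolve_right (hv _)
    · exact h0 i hi

/-- no nondegenerate alternating form on a group of order eight -/
theorem no8 {E : Type*} [Group E] (h8 : Nat.card E = 8) (hsq : ∀ x : E, x * x = 1)
    (b : E → E → Prop) (hr : ∀ x, b x x) (hs : ∀ x y, b x y → b y x)
    (hm : ∀ x y w, b x (y * w) ↔ (b x y ↔ b x w)) (hn : ∀ x, (∀ y, b x y) → x = 1) : False := by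
  classical
  have : Finite E := Nat.finite_of_card_ne_zero (by omega)
  have := Fintype.ofFinite E
  have h1 : ∀ x, b x 1 := fun x => by rw [← hsq x, hm]
  have hinv : ∀ x : E, x⁻¹ = x := fun x => inv_eq_of_mul_eq_one_right (hsq x)
  have : Nontrivial E := Finite.one_lt_card_iff_nontrivial.1 (by omega)
  obtain ⟨x, hx⟩ := exists_ne (1 : E)
  obtain ⟨y, hy⟩ : ∃ y, ¬ b x y := by
    by_contra h
    push Not at h
    exact hx (hn x h)
  have hyx : ¬ b y x := fun h => hy (hs _ _ h)
  obtain ⟨v, v', hne, hvv⟩ := Fintype.exists_ne_map_eq_of_card_lt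
    (fun v : E => (decide (b x v), decide (b y v))) (by
      rw [← Nat.card_eq_fintype_card (α := E), h8]; simp)
  simp only [Prod.mk.injEq, decide_eq_decide] at hvv
  have hxw : b x (v * v') := (hm _ _ _).2 hvv.1
  have hyw : b y (v * v') := (hm _ _ _).2 hvv.2
  have hw1 : v * v' ≠ 1 := fun h => hne (by rw [← hinv v', eq_inv_iff_mul_eq_one, h])
  generalize v * v' = w at hxw hyw hw1
  have hxy : ¬ b x (x * y) := fun h => hy (((hm _ _ _).1 h).1 (hr x))
  have hyxy : ¬ b y (x * y) := fun h => hyx (((hm _ _ _).1 h).2 (hr y))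
  let Hw : Subgroup E :=
    { carrier := {v | b w v}
      mul_mem' := fun {a c} ha hc => (hm _ _ _).2 ⟨fun _ => hc, fun _ => ha⟩
      one_mem' := h1 w
      inv_mem' := fun {a} ha => by rw [hinv]; exact ha }
  have hsub : ((({1, w, x, y, x * y} : Finset E)) : Set E) ⊆ Hw := by
    intro a ha
    simp only [Finset.coe_insert, Finset.coe_singleton, Set.mem_insert_iff,
      Set.mem_singleton_iff] at ha
    have hwx : x ∈ Hw := hs _ _ hxw
    have hwy : y ∈ Hw := hs _ _ hyw
    rcases ha with rfl | rfl | rfl | rfl | rfl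
    · exact Hw.one_mem
    · exact hr _
    · exact hwx
    · exact hwy
    · exact Hw.mul_mem hwx hwy
  have hc5 : ({1, w, x, y, x * y} : Finset E).card = 5 := by
    have e1 : (1 : E) ≠ w := hw1.symm
    have e2 : (1 : E) ≠ x := hx.symm
    have e3 : (1 : E) ≠ y := fun h => hy (h ▸ h1 x)
    have e4 : (1 : E) ≠ x * y := fun h => hxy (h ▸ h1 x)
    have e5 : w ≠ x := fun h => hyx (h ▸ hyw)
    have e6 : w ≠ y := fun h => hy (h ▸ hxw)
    have e7 : w ≠ x * y := fun h => hxy (h ▸ hxw)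
    have e8 : x ≠ y := fun h => hy (h ▸ hr x)
    have e9 : x ≠ x * y := fun h => hxy (h ▸ hr x)
    have e10 : y ≠ x * y := fun h => hyxy (h ▸ hr y)
    rw [Finset.card_insert_of_notMem (by simp [e1, e2, e3, e4]),
      Finset.card_insert_of_notMem (by simp [e5, e6, e7]),
      Finset.card_insert_of_notMem (by simp only [Finset.mem_insert, Finset.mem_singleton]; tauto),
      Finset.card_insert_of_notMem (by simp only [Finset.mem_singleton]; tauto),
      Finset.card_singleton]
  have h5 : 5 ≤ Nat.card Hw := by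
    rw [← hc5, ← Set.ncard_coe_finset]
    exact Set.ncard_le_ncard hsub
  have hd : Nat.card Hw ∣ 8 := h8 ▸ Subgroup.card_subgroup_dvd_card Hw
  have hle : Nat.card Hw ≤ 8 := Nat.le_of_dvd (by norm_num) hd
  have he : Nat.card Hw = 8 := by
    generalize Nat.card Hw = m at h5 hd hle
    interval_cases m <;> omega
  have htop : Hw = ⊤ := Subgroup.eq_top_of_card_eq _ (he.trans h8.symm)
  exact hw1 (hn w fun v => show v ∈ Hw from htop ▸ Subgroup.mem_top v)

theorem fpf_card {Q : Type*} [Group Q] [Finite Q] {r : ℕ} [Fact r.Prime] (α : MulAut Q)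
    (hα : α ^ r = 1) (fpf : ∀ x, α x = x → x = 1) (M : Subgroup Q) (hM : ∀ g ∈ M, α g ∈ M) :
    Nat.card M ≡ 1 [MOD r] := by
  classical
  have := Fintype.ofFinite M
  let f : Function.End M := fun x => ⟨α x, hM _ x.2⟩
  have hf : ∀ (k : ℕ) (x : M), (((f ^ k) x : M) : Q) = (α ^ k) x := by
    intro k
    induction k with
    | zero => intro x; rfl
    | succ k ih =>
      intro x
      rw [pow_succ, pow_succ, MulAut.mul_apply]
      exact ih (f x)
  have h1 : f ^ r ^ 1 = 1 := by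
    funext x
    apply Subtype.ext
    rw [pow_one, hf, hα]
    rfl
  have h2 := Equiv.Perm.card_fixedPoints_modEq h1
  have h3 : Fintype.card f.fixedPoints = 1 := by
    rw [Fintype.card_eq_one_iff]
    refine ⟨⟨1, Subtype.ext (map_one α)⟩, fun y => Subtype.ext (Subtype.ext ?_)⟩
    exact fpf _ (congrArg Subtype.val y.2)
  rwa [h3, ← Nat.card_eq_fintype_card] at h2

/-- an invariant elementary abelian `2`-subgroup -/
theorem exists_elem_aut {Q : Type*} [Group Q] [Finite Q] {r : ℕ} [hr : Fact r.Prime]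
    (α : MulAut Q) (hα : α ^ r = 1) (fpf : ∀ x, α x = x → x = 1) (x : Q)
    (hx : ∀ m, Odd m → x ^ m ≠ 1) :
    ∃ M : Subgroup Q, (∃ g ∈ M, g ≠ 1) ∧ (∀ g, α g ∈ M ↔ g ∈ M) ∧ (∀ g ∈ M, g * g = 1) ∧
      Nat.card M ≡ 1 [MOD r] := by
  classical
  have : Fact (Nat.Prime 2) := ⟨Nat.prime_two⟩
  have hQ : Nat.card Q ≡ 1 [MOD r] := by
    have := fpf_card α hα fpf ⊤ fun _ _ => Subgroup.mem_top _
    rwa [Subgroup.card_top] at this
  have h2 : 2 ∣ Nat.card Q := by
    refine Dvd.dvd.trans ?_ (orderOf_dvd_natCard x)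
    by_contra h
    exact hx _ (Nat.odd_iff.2 (by omega)) (pow_orderOf_eq_one x)
  have := Fintype.ofFinite (Sylow 2 Q)
  obtain ⟨S, hS⟩ := Equiv.Perm.exists_fixed_point_of_prime (p := r) (n := 1)
    (α := Sylow 2 Q) (σ := MulAction.toPermHom (MulAut Q) (Sylow 2 Q) α) (by
      intro h
      rw [← Nat.card_eq_fintype_card] at h
      obtain ⟨P⟩ : Nonempty (Sylow 2 Q) := inferInstance
      have h3 : r ∣ Nat.card Q := (h.trans (Sylow.card_dvd_index P)).trans
        (Subgroup.index_dvd_card _)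
      have h4 : r ∣ 1 := (Nat.ModEq.dvd_iff hQ dvd_rfl).1 h3
      exact hr.out.one_lt.ne' (Nat.dvd_one.1 h4)) (by rw [pow_one, ← map_pow, hα, map_one])
  have hS' : ∀ g, α g ∈ (S : Subgroup Q) ↔ g ∈ (S : Subgroup Q) := by
    intro g
    have h1 : α • (S : Subgroup Q) = S := congrArg Sylow.toSubgroup hS
    conv_lhs => rw [← h1]
    exact Subgroup.smul_mem_pointwise_smul_iff
  let M : Subgroup Q :=
    { carrier := {g | g ∈ (S : Subgroup Q) ∧ (∀ h ∈ (S : Subgroup Q), Commute g h) ∧ g * g = 1}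
      mul_mem' := fun {a c} ha hc => ⟨mul_mem ha.1 hc.1,
        fun h hh => (ha.2.1 h hh).mul_left (hc.2.1 h hh), by
          rw [(ha.2.1 c hc.1).symm.mul_mul_mul_comm, ha.2.2, hc.2.2, one_mul]⟩
      one_mem' := ⟨one_mem _, fun h _ => Commute.one_left h, one_mul 1⟩
      inv_mem' := fun {a} ha => ⟨inv_mem ha.1, fun h hh => (ha.2.1 h hh).inv_left, by
        rw [← mul_inv_rev, ha.2.2, inv_one]⟩ }
  have hM : ∀ g, α g ∈ M ↔ g ∈ M := by
    intro g
    constructor
    · rintro ⟨a1, a2, a3⟩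
      refine ⟨(hS' g).1 a1, fun h hh => α.injective ?_, α.injective ?_⟩
      · rw [map_mul, map_mul]
        exact a2 _ ((hS' h).2 hh)
      · rw [map_mul, a3, map_one]
    · rintro ⟨a1, a2, a3⟩
      refine ⟨(hS' g).2 a1, fun h hh => ?_, by rw [← map_mul, a3, map_one]⟩
      obtain ⟨h, rfl⟩ := α.surjective h
      exact (a2 h ((hS' h).1 hh)).map α
  refine ⟨M, ?_, hM, fun g hg => hg.2.2, fpf_card α hα fpf M fun g hg => (hM g).2 hg⟩
  have : Nontrivial S := (Subgroup.nontrivial_iff_ne_bot _).2 (S.ne_bot_of_dvd_card h2)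
  have := S.isPGroup'.center_nontrivial
  obtain ⟨k, hk, hc⟩ := (S.isPGroup'.to_subgroup (Subgroup.center S)).nontrivial_iff_card.1
    inferInstance
  obtain ⟨c, hc2⟩ := exists_prime_orderOf_dvd_card' (G := Subgroup.center S) 2
    (hc ▸ dvd_pow_self 2 hk.ne')
  refine ⟨c.1.1, ⟨c.1.2, fun h hh => ?_, ?_⟩, fun h => ?_⟩
  · exact (congrArg Subtype.val (Subgroup.mem_center_iff.1 c.2 ⟨h, hh⟩)).symm
  · have := pow_orderOf_eq_one c
    rw [hc2, pow_two] at this
    exact congrArg (fun y : Subgroup.center S => y.1.1) this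
  · have : c = 1 := Subtype.ext (Subtype.ext h)
    rw [this, orderOf_one] at hc2
    omega

theorem exists_elem {Q : Type*} [Group Q] [Finite Q] {r : ℕ} [Fact r.Prime] (N : Subgroup Q)
    [N.Normal] (u : Q) (hu : u ^ r = 1) (fpf : ∀ x ∈ N, u * x * u⁻¹ = x → x = 1) (x : Q)
    (hxN : x ∈ N) (hx : ∀ m, Odd m → x ^ m ≠ 1) :
    ∃ M : Subgroup Q, M ≤ N ∧ (∃ g ∈ M, g ≠ 1) ∧ (∀ g, u * g * u⁻¹ ∈ M ↔ g ∈ M) ∧
      (∀ g ∈ M, g * g = 1) ∧ Nat.card M ≡ 1 [MOD r] := by
  obtain ⟨M, ⟨g, hg, hg1⟩, h2, h3, h4⟩ := exists_elem_aut (r := r)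
    (MulAut.conjNormal u : MulAut N) (by rw [← map_pow, hu, map_one])
    (fun y hy => Subtype.ext (fpf y y.2 (congrArg Subtype.val hy))) ⟨x, hxN⟩
    fun m hm h => hx m hm (congrArg Subtype.val h)
  refine ⟨M.map N.subtype, Subgroup.map_subtype_le M, ⟨g, ⟨g, hg, rfl⟩,
    fun h => hg1 (Subtype.ext h)⟩, fun y => ⟨?_, ?_⟩, ?_, ?_⟩
  · rintro ⟨a, ha, e⟩
    have hy : y ∈ N := by
      have := ‹N.Normal›.conj_mem _ a.2 u⁻¹
      rw [show (a : Q) = u * y * u⁻¹ from e] at this
      simpa [mul_assoc] using this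
    refine ⟨⟨y, hy⟩, (h2 _).1 ?_, rfl⟩
    rwa [show MulAut.conjNormal u (⟨y, hy⟩ : N) = a from Subtype.ext e.symm]
  · rintro ⟨a, ha, rfl⟩
    exact ⟨_, (h2 a).2 ha, rfl⟩
  · rintro _ ⟨a, ha, rfl⟩
    exact congrArg Subtype.val (h3 a ha)
  · rwa [Subgroup.card_map_of_injective N.subtype_injective]

end Cfsg.Agent.H34.C6K
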