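import Cfsg.Agent.H70.RfVaT
import Cfsg.Agent.H81.RfVcT

/-! Project RF, piece TA. -/

set_option autoImplicit false
set_option maxRecDepth 100000

namespace Cfsg.Agent.H34.RfTa

open Cfsg Subgroup Cfsg.Agent.H18.Rf Cfsg.Agent.H35.RF
open Cfsg.Agent.H42 hiding cj card_cj mem_cj
open Cfsg.Agent.H83.J4 (rp cw cw_lt lab_aux)
open Cfsg.Agent.H23.RfWcT (psi_cw ev_rp chi_inj)
open Cfsg.Agent.H70.RfVaT (Par prt prt_iff wd wd_mem nF factF inM_gF)
open Cfsg.Agent.H81.RfVcT (good comm_iff mem_z)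
open scoped commutatorElement Pointwise symmDiff

universe u

theorem inM_rS : inM rS = true := by decide +kernel

theorem c1 : allB (fun j => prt (rp j)) 128 = true := by decide +kernel

theorem c2 : allB (fun i => Nat.beq (img rS (fld 24 sext0 i)) (fld 24 sext0 i)) 6 = true := by
  decide +kernel

theorem c3 : (force (cw 8388615) fun z => allB (fun j =>
    Bool.or (!good z rS j) (Bool.or (Nat.beq j 0) (Nat.beq j z))) 128) = true := by
  decide +kernel

theorem c4 : orbAll (actsOf pmul gF) pid 100 (fun y => Bool.or (Nat.beq y pid)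
    (!Nat.beq (pmul rS y) (pmul y rS))) = true := by decide +kernel

noncomputable def ab (g : ℕ) : Bool := force (pconj g rS) fun x =>
  Bool.or (force (pmul x (pinv rS)) fun y => anyL (fun l => Nat.beq (wd l) y) gF.sublists)
    (force (pmul x rS) fun y => anyL (fun l => Nat.beq (wd l) y) gF.sublists)

theorem c5 : allL (fun g => Bool.and (ab g) (ab (pinv g))) gensS = true := by decide +kernel

theorem c6 : anyL (fun g => force (pmul (pconj g rS) (pinv rS)) fun y =>
    !Nat.beq (pmul y y) pid) gensS = true := by decide +kernel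

theorem fixT : ∀ t ∈ famDec 6 sext0, toM rS • t = t :=
  forall_famDec.2 fun i hi => by rw [toM_smul_toSet inM_rS, beq_iff.1 (of_allB c2 hi)]

theorem rS_mem : toM rS ∈ GS := by
  rw [MulAction.mem_stabilizer_iff]
  ext t
  constructor
  · intro ht
    obtain ⟨s, hs, rfl⟩ := Finset.mem_smul_finset.1 ht
    rwa [fixT s hs]
  · intro ht
    exact Finset.mem_smul_finset.2 ⟨t, ht, fixT t ht⟩

theorem par_comm (c : Finset GolayPt) : Par ((toM rS • c) ∆ c) := by
  have k : ∀ t ∈ famDec 6 sext0, (((toM rS • c) ∆ c) ∩ t).card % 2 = 0 := by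
    intro t ht
    have e1 : ((toM rS • c) ∆ c) ∩ t = (toM rS • c ∩ t) ∆ (c ∩ t) :=
      inf_symmDiff_distrib_right _ _ _
    have e2 := card_symmDiff_add (toM rS • c ∩ t) (c ∩ t)
    have e3 : (toM rS • c ∩ t).card = (c ∩ t).card := by
      conv_lhs => rw [← fixT t ht, ← Finset.smul_finset_inter, Finset.card_smul_finset]
    rw [e1]
    omega
  exact fun t ht t' ht' => (k t ht).trans (k t' ht').symm

theorem ab_spec {g : ℕ} (hg : inM g = true) (h : ab g = true) :
    toM g * toM rS * (toM g)⁻¹ * (toM rS)⁻¹ ∈ gen gF ∨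
      toM g * toM rS * (toM g)⁻¹ * toM rS ∈ gen gF := by
  simp only [ab, force_eq, Bool.or_eq_true] at h
  rcases h with h | h
  · obtain ⟨l, hl, e⟩ := anyL_iff.1 h
    have h2 := (wd_mem l fun x hx => (List.mem_sublists.1 hl).subset hx).2
    rw [beq_iff.1 e, toM_pmul (inM_pconj hg inM_rS) (inM_pinv inM_rS), toM_pconj hg inM_rS,
      toM_pinv inM_rS] at h2
    exact .inl h2
  · obtain ⟨l, hl, e⟩ := anyL_iff.1 h
    have h2 := (wd_mem l fun x hx => (List.mem_sublists.1 hl).subset hx).2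
    rw [beq_iff.1 e, toM_pmul (inM_pconj hg inM_rS) inM_rS, toM_pconj hg inM_rS] at h2
    exact .inr h2

theorem step {H : Type*} [Group H] {F : Subgroup H} {r m n : H} (hr : r ∈ normalizer (F : Set H))
    (hm : m ∈ normalizer (F : Set H))
    (a : m * r * m⁻¹ * r⁻¹ ∈ F ∨ m * r * m⁻¹ * r ∈ F)
    (b : n * r * n⁻¹ * r⁻¹ ∈ F ∨ n * r * n⁻¹ * r ∈ F) :
    m * n * r * (m * n)⁻¹ * r⁻¹ ∈ F ∨ m * n * r * (m * n)⁻¹ * r ∈ F := by
  have cm : ∀ x ∈ F, m * x * m⁻¹ ∈ F := fun x hx => (mem_normalizer_iff.1 hm x).1 hx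
  have cr : ∀ x ∈ F, r * x * r⁻¹ ∈ F := fun x hx => (mem_normalizer_iff.1 hr x).1 hx
  have cr' : ∀ x ∈ F, r⁻¹ * x * r⁻¹⁻¹ ∈ F := fun x hx =>
    (mem_normalizer_iff.1 (inv_mem hr) x).1 hx
  rcases a with a | a <;> rcases b with b | b
  · left
    convert F.mul_mem (cm _ b) a using 1
    group
  · right
    convert F.mul_mem (cm _ b) (cr' _ (F.inv_mem a)) using 1
    group
  · right
    convert F.mul_mem (cm _ b) a using 1
    group
  · left
    convert F.mul_mem (cm _ b) (cr _ (F.inv_mem a)) using 1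
    group

theorem slS {m : M24} (hm : m ∈ GS) :
    m * toM rS * m⁻¹ * (toM rS)⁻¹ ∈ gen gF ∨ m * toM rS * m⁻¹ * toM rS ∈ gen gF := by
  rw [GS_eq] at hm
  induction hm using closure_induction'' with
  | mem x hx =>
    obtain ⟨g, hg, rfl⟩ := hx
    have := allL_iff.1 c5 g hg
    rw [Bool.and_eq_true] at this
    exact ab_spec (inM_gensS g hg) this.1
  | inv_mem x hx =>
    obtain ⟨g, hg, rfl⟩ := hx
    have := allL_iff.1 c5 g hg
    rw [Bool.and_eq_true] at this
    have h := ab_spec (inM_pinv (inM_gensS g hg)) this.2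
    rwa [toM_pinv (inM_gensS g hg)] at h
  | one => left; simp
  | mul x y hx hy a b => exact step (nF rS_mem) (nF (GS_eq ▸ hx)) a b

theorem ta (kit : KitTStmt.{u}) (va : VaTStmt.{u}) : TaStmt.{u} := by
  intro G _ _ V ρ ψ ω hz
  have S := hz.st
  have T := hz.tod
  have A := va G V ρ ψ ω hz
  obtain ⟨hω, eω⟩ := hz.om
  obtain ⟨kM, kW, kz, kc, kF, -⟩ := kit G V ρ ψ S T
  have exW : ∀ w ∈ WT ψ, ∃ j < 128, ψ (toSet (rp j)) = w := by
    intro w hw
    obtain ⟨c, hc, rfl⟩ := T.sur w (A.WV hw)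
    have e := psi_cw S T (mask_lt c) (by rwa [toSet_mask])
    rw [toSet_mask] at e
    have l := cw_lt (mask_lt c)
    refine ⟨_, ?_, e.symm⟩
    have k := of_allB H70.RfVaT.chk1 l
    rw [(prt_iff (lab_aux l).2.2.1).2 ((kW _ (ev_rp l)).1 (e ▸ hw))] at k
    have := ble_iff.1 (by simpa using k)
    omega
  have cm : ∀ (n : NN V) (c : Finset GolayPt), Even c.card →
      ⁅(n : G), ψ c⁆ = ψ ((ρ n • c) ∆ c) := by
    intro n c hc
    rw [commutatorElement_def, T.act n c hc, inv_eq_of_mul_eq_one_right (S.el _ (T.mem c hc)),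
      T.add _ _ (by rwa [Finset.card_smul_finset]) hc]
  refine ⟨?_, ?_, ?_, ?_, ?_, fun v hv => ?_, fun w hw h => ?_, fun r hr h => ?_, fun m hm => ?_,
    ?_⟩
  · have h1 : (WT ψ : Set G) = (fun j => ψ (toSet (rp j))) '' (Finset.range 128 : Set ℕ) := by
      ext w
      constructor
      · intro hw
        obtain ⟨j, hj, e⟩ := exW w hw
        exact ⟨j, Finset.mem_coe.2 (Finset.mem_range.2 hj), e⟩
      · rintro ⟨j, hj, rfl⟩
        have hj' : j < 128 := Finset.mem_range.1 (Finset.mem_coe.1 hj)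
        exact subset_closure ⟨_, (prt_iff (lab_aux (show j < 2048 by omega)).2.2.1).1
          (of_allB c1 hj'), rfl⟩
    have h2 : ((fun j => ψ (toSet (rp j))) '' (Finset.range 128 : Set ℕ)).ncard = 128 := by
      rw [Set.InjOn.ncard_image, Set.ncard_coe_finset, Finset.card_range]
      intro i hi j hj e
      have hi' : i < 128 := Finset.mem_range.1 (Finset.mem_coe.1 hi)
      have hj' : j < 128 := Finset.mem_range.1 (Finset.mem_coe.1 hj)
      exact chi_inj S T (by omega) (by omega) e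
    rw [← h1] at h2
    exact (Nat.card_coe_set_eq (WT ψ : Set G)).trans h2
  · rw [RT, kc, kF]
    norm_num
  · rw [kM, kc, card_stab_sextet sext0_mem]
    norm_num
  · rw [kM]
    exact mem_pre.2 ⟨hω, eω ▸ rS_mem⟩
  · haveI : Fact (Nat.Prime 3) := ⟨Nat.prime_three⟩
    refine orderOf_eq_prime hz.o3 fun e => ?_
    have h1 : (⟨ω, hω⟩ : NN V) = 1 := Subtype.ext e
    rw [h1, map_one] at eω
    exact absurd ((toM_eq_one_iff inM_rS).1 eω.symm) (by decide +kernel)
  · obtain ⟨c, hc, rfl⟩ := T.sur v hv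
    rw [← commutatorElement_inv]
    refine inv_mem ?_
    rw [show ⁅ω, ψ c⁆ = _ from cm ⟨ω, hω⟩ c hc, eω]
    exact subset_closure ⟨_, par_comm c, rfl⟩
  · obtain ⟨j, hj, rfl⟩ := exW w hw
    have hj' : j < 2048 := by omega
    have k := c3
    rw [force_eq] at k
    have k1 := of_allB k hj
    rw [(comm_iff S T (n := ⟨ω, hω⟩) inM_rS eω hj').1 h, Bool.not_true, Bool.false_or,
      Bool.or_eq_true, beq_iff, beq_iff] at k1
    exact (mem_z S T hj').2 k1
  · obtain ⟨hn, hF⟩ := mem_pre.1 hr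
    obtain ⟨p, hp, e, k⟩ := forall_gen inM_gF c4 hF
    have h1 : ρ ⁅(⟨ω, hω⟩ : NN V), ⟨r, hn⟩⁆ = 1 := (S.ker _).2 h
    rw [map_commutatorElement, eω, ← e, commutatorElement_eq_one_iff_mul_comm,
      ← toM_pmul inM_rS hp, ← toM_pmul hp inM_rS] at h1
    rw [beq_iff.2 (toM_inj (inM_pmul inM_rS hp) (inM_pmul hp inM_rS) h1), Bool.not_true,
      Bool.or_false, beq_iff] at k
    exact (S.ker ⟨r, hn⟩).1 (by rw [← e, k, toM_pid])
  · rw [kM] at hm
    obtain ⟨hn, hm⟩ := mem_pre.1 hm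
    have := slS hm
    rw [← eω] at this
    rcases this with h | h
    · rw [← map_inv, ← map_inv, ← map_mul, ← map_mul, ← map_mul] at h
      exact .inl (coe_mem_pre.2 h)
    · rw [← map_inv, ← map_mul, ← map_mul, ← map_mul] at h
      exact .inr (coe_mem_pre.2 h)
  · obtain ⟨g, hg, k⟩ := anyL_iff.1 c6
    have hg' := inM_gensS g hg
    obtain ⟨n, hn⟩ := S.sur (toM g)
    refine ⟨n, ?_, fun h => ?_⟩
    · rw [kM]
      exact coe_mem_pre.2 (by rw [hn, GS_eq]; exact toM_mem_gen hg)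
    · have h1 : ρ ⁅n, (⟨ω, hω⟩ : NN V)⁆ ∈ gen gF := coe_mem_pre.1 h
      have hy := inM_pmul (inM_pconj hg' inM_rS) (inM_pinv inM_rS)
      rw [map_commutatorElement, hn, eω, commutatorElement_def, ← toM_pconj hg' inM_rS,
        ← toM_pinv inM_rS, ← toM_pmul (inM_pconj hg' inM_rS) (inM_pinv inM_rS)] at h1
      have h2 := (factF h1).1
      rw [← toM_pmul hy hy, toM_eq_one_iff (inM_pmul hy hy)] at h2
      rw [force_eq, beq_iff.2 h2] at k
      exact Bool.noConfusion k

end Cfsg.Agent.H34.RfTa
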