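import Cfsg.Agent.H35.RfQ
import Cfsg.Agent.H52.FStar
import Cfsg.Agent.H8.SylowIn
import Cfsg.Agent.H3.Primitive

/-! Project RF, piece XC: the layer of the quotient group is quasisimple. -/

set_option autoImplicit false
set_option linter.unusedVariables false

namespace Cfsg.Agent.H34.RfXc

open Cfsg Subgroup Cfsg.Agent.H18.Rf Cfsg.Agent.H35.RF
open scoped commutatorElement Pointwise

universe u

section Gen

variable {X : Type u} [Group X] [Finite X]

/-- Burnside's transfer theorem for a perfect subgroup. -/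
theorem burn {L S : Subgroup X} (hS : H8.IsSylowIn 2 S L) (hp : ⁅L, L⁆ = L)
    (hN : ∀ g ∈ L, g ∈ normalizer (S : Set X) → g ∈ centralizer (S : Set X)) : S = ⊥ := by
  let P : Sylow 2 L := hS.toSylow
  have hPc : (P : Subgroup L) = S.subgroupOf L := hS.coe_toSylow
  have hP : normalizer (P : Set L) ≤ centralizer (P : Set L) := by
    intro g hg
    have hg' : (g : X) ∈ normalizer (S : Set X) := by
      rw [mem_normalizer_iff]
      intro h
      have hg2 : g ∈ normalizer ((P : Subgroup L) : Set L) := hg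
      rw [mem_normalizer_iff] at hg2
      constructor
      · intro hh
        have := (hg2 ⟨h, hS.le hh⟩).1 (by rw [hPc]; exact hh)
        rw [hPc] at this
        exact this
      · intro hh
        have hL : h ∈ L := by
          have h1 := hS.le hh
          have h2 := L.mul_mem (L.mul_mem (L.inv_mem g.2) h1) g.2
          simpa [mul_assoc] using h2
        have := (hg2 ⟨h, hL⟩).2 (by rw [hPc]; exact hh)
        rw [hPc] at this
        exact this
    have hc := hN g g.2 hg'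
    rw [mem_centralizer_iff]
    intro x hx
    have hx' : x ∈ (P : Subgroup L) := hx
    rw [hPc] at hx'
    exact Subtype.ext (mem_centralizer_iff.1 hc x hx')
  have hker : (MonoidHom.transferSylow P hP).ker = ⊤ := by
    have hperf : commutator L = ⊤ := by
      apply map_injective L.subtype_injective
      rw [commutator_def, map_commutator, ← MonoidHom.range_eq_map, range_subtype, hp]
    rw [eq_top_iff, ← hperf, commutator_def, commutator_le]
    intro a _ b _
    rw [MonoidHom.mem_ker, map_commutatorElement, commutatorElement_eq_one_iff_mul_comm]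
    exact Subtype.ext (hP (le_normalizer (MonoidHom.transferSylow P hP b).2) _
      (MonoidHom.transferSylow P hP a).2)
  have hd := MonoidHom.ker_transferSylow_disjoint P hP P P.isPGroup'
  rw [hker, disjoint_iff, top_inf_eq, hPc] at hd
  rw [eq_bot_iff]
  intro x hx
  have : (⟨x, hS.le hx⟩ : L) ∈ S.subgroupOf L := hx
  rw [hd, mem_bot] at this
  exact mem_bot.2 (congrArg Subtype.val this)

theorem odd_of_syl {K S : Subgroup X} (hS : H8.IsSylowIn 2 S K) (h : S = ⊥) :
    (Nat.card K).Coprime 2 := by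
  have h1 := hS.not_dvd
  rw [h, relIndex_bot_left] at h1
  exact ((Nat.Prime.coprime_iff_not_dvd Nat.prime_two).2 h1).symm

theorem pow_triv {ρ r : X} (h3 : orderOf ρ = 3) (hr : r ∈ zpowers ρ) (h : r ^ 256 = 1) : r = 1 := by
  obtain ⟨k, rfl⟩ := mem_zpowers_iff.1 hr
  have h1 : (ρ ^ k) ^ 3 = 1 := by
    rw [← zpow_natCast, ← zpow_mul, mul_comm, zpow_mul, zpow_natCast, ← h3, pow_orderOf_eq_one,
      one_zpow]
  have h2 : (ρ ^ k) ^ 256 = ((ρ ^ k) ^ 3) ^ 85 * ρ ^ k := by
    rw [← pow_mul, ← pow_succ]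
  rw [h2, h1, one_pow, one_mul] at h
  exact h

end Gen

section Main

variable {X : Type u} [Group X] [Finite X] {H E T : Subgroup X} {ρ : X}

theorem powT (b : XFb H E T ρ) {t : X} (ht : t ∈ T) : t ^ 256 = 1 := by
  have := pow_card_eq_one' (G := T) (x := ⟨t, ht⟩)
  rw [b.cT] at this
  exact congrArg Subtype.val this

theorem Ecomm (b : XFb H E T ρ) {e e' : X} (he : e ∈ E) (he' : e' ∈ E) : e * e' = e' * e := by
  have h1 := b.sqE e he
  have h2 := b.sqE e' he'
  have h3 := b.sqE _ (E.mul_mem he he')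
  have i1 : e⁻¹ = e := inv_eq_of_mul_eq_one_right h1
  have i2 : e'⁻¹ = e' := inv_eq_of_mul_eq_one_right h2
  have i3 : (e * e')⁻¹ = e * e' := inv_eq_of_mul_eq_one_right h3
  rw [← i3, mul_inv_rev, i1, i2]

theorem Ez (b : XFb H E T ρ) {e r : X} (he : e ∈ E) (hr : r ∈ zpowers ρ) : e * r = r * e := by
  obtain ⟨k, rfl⟩ := mem_zpowers_iff.1 hr
  have h : Commute ρ e := mem_centralizer_iff.1 (b.Eρ he) ρ rfl
  exact (h.zpow_left k).symm.eq

theorem memEz (b : XFb H E T ρ) {x : X} (hx : x ∈ E ⊔ zpowers ρ) :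
    ∃ e ∈ E, ∃ r ∈ zpowers ρ, e * r = x :=
  (H52.mem_sup_of_commutator_eq_bot
    (H52.commutator_eq_bot_iff_forall.2 fun _ he _ hr => Ez b he hr)).1 hx

theorem TE (b : XFb H E T ρ) {t : X} (ht : t ∈ T) (hx : t ∈ E ⊔ zpowers ρ) : t ∈ E := by
  obtain ⟨e, he, r, hr, rfl⟩ := memEz b hx
  have hrT : r ∈ T := by
    have := T.mul_mem (T.inv_mem (b.ET he)) ht
    simpa using this
  rw [pow_triv b.ρ3 hr (powT b hrT), mul_one]
  exact he

theorem Ezρ (b : XFb H E T ρ) {x : X} (hx : x ∈ E ⊔ zpowers ρ) : x ∈ C1 ρ := by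
  obtain ⟨e, he, r, hr, rfl⟩ := memEz b hx
  refine (C1 ρ).mul_mem (b.Eρ he) ?_
  obtain ⟨k, rfl⟩ := mem_zpowers_iff.1 hr
  exact (C1 ρ).zpow_mem (mem_centralizer_singleton_iff.2 rfl) k

theorem EzE (b : XFb H E T ρ) {x : X} (hx : x ∈ E ⊔ zpowers ρ) : x ∈ CC E := by
  obtain ⟨e, he, r, hr, rfl⟩ := memEz b hx
  refine (CC E).mul_mem ?_ ?_
  · exact mem_centralizer_iff.2 fun y hy => Ecomm b hy he
  · exact mem_centralizer_iff.2 fun y hy => Ez b hy hr

theorem cen1 (b : XFb H E T ρ) (h3 : pPrimeCore 2 X ≤ zpowers ρ) {x : X}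
    (hx : x ∈ CC (layer X)) (hρ : x ∈ C1 ρ) : x ∈ zpowers ρ := by
  have hF : fittingSubgroup X ≤ zpowers ρ := by
    refine (H52.fitting_le_pCore_sup_pPrimeCore (p := 2)).trans ?_
    rw [b.o2, bot_sup_eq]
    exact h3
  refine hF (H52.centralizer_fstar_le_fitting ?_)
  have hle : generalizedFittingSubgroup X ≤ C1 x := by
    refine sup_le ?_ (hF.trans ?_)
    · intro l hl
      exact mem_centralizer_singleton_iff.2 (mem_centralizer_iff.1 hx l hl)
    · rw [zpowers_le]
      exact mem_centralizer_singleton_iff.2 (mem_centralizer_singleton_iff.1 hρ).symm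
  exact mem_centralizer_iff.2 fun y hy => mem_centralizer_singleton_iff.1 (hle hy)

theorem cL (b : XFb H E T ρ) (c : XFc H E ρ) (h3 : pPrimeCore 2 X ≤ zpowers ρ) :
    CC (layer X) ≤ zpowers ρ := by
  haveI : (layer X).Normal := H52.layer_normal
  haveI hD : (CC (layer X)).Normal := normal_centralizer
  obtain ⟨P, hP⟩ := b.syl
  have hS := H8.isSylowIn_inf_normal P (CC (layer X))
  rw [hP] at hS
  refine le_trans (H52.le_pPrimeCore_of_subnormal hD.isSubnormal (odd_of_syl hS ?_)) h3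
  rw [eq_bot_iff]
  rintro t ⟨ht, htD⟩
  have htE : t ∈ CC E := by
    refine mem_centralizer_iff.2 fun e he => ?_
    have h1 : t * e * t⁻¹ * e⁻¹ ∈ E :=
      E.mul_mem ((mem_normalizer_iff.1 (b.nE (b.TH ht)) e).1 he) (E.inv_mem he)
    have h2 : t * e * t⁻¹ * e⁻¹ ∈ CC (layer X) := by
      have := (CC (layer X)).mul_mem htD (hD.conj_mem _ ((CC (layer X)).inv_mem htD) e)
      simpa [mul_assoc] using this
    have h4 := pow_triv b.ρ3 (cen1 b h3 h2 (b.Eρ h1)) (powT b (b.ET h1))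
    have h5 : t * e * t⁻¹ = e := mul_inv_eq_one.1 h4
    rw [mul_inv_eq_iff_eq_mul] at h5
    exact h5.symm
  have h6 := cen1 b h3 htD (Ezρ b (c.cen ⟨b.TH ht, htE⟩))
  exact mem_bot.2 (pow_triv b.ρ3 h6 (powT b ht))

theorem exE (b : XFb H E T ρ) : ∃ e ∈ E, ∃ e' ∈ E, e ≠ 1 ∧ e' ≠ 1 ∧ e * e' ≠ 1 := by
  obtain ⟨e, he, he1, -, -⟩ := b.zT
  by_contra hcon
  push_neg at hcon
  have hle : E ≤ zpowers e := by
    intro x hx
    by_cases h1 : x = 1
    · rw [h1]; exact one_mem _
    · have h2 := hcon e he x hx he1 h1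
      rw [← inv_eq_of_mul_eq_one_right h2]
      exact inv_mem (mem_zpowers e)
  have h1 := card_dvd_of_le hle
  have h2 : orderOf e ∣ 2 := orderOf_dvd_of_pow_eq_one (by rw [pow_two]; exact b.sqE e he)
  rw [b.cE, Nat.card_zpowers] at h1
  have := h1.trans h2
  omega

theorem notE (b : XFb H E T ρ) : ¬ E ≤ zpowers ρ := by
  intro h
  have := card_dvd_of_le h
  rw [b.cE, Nat.card_zpowers, b.ρ3] at this
  omega

variable {A : Type u} [Group A] {φ : X →* MulAut A} {s : A → ZMod 2} {W : Subgroup A}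

theorem nEH (a : XFa φ s W H E ρ) (b : XFb H E T ρ) {g : X} (hg : g ∈ NN E) : g ∈ H := by
  obtain ⟨e, he, e', he', h1, h2, h3⟩ := exE b
  rw [a.nW]
  intro w hw
  have key : ∀ y ∈ E, φ y (φ g w) = φ g w := by
    intro y hy
    have hy' : g⁻¹ * y * g ∈ E := by
      have := (mem_normalizer_iff.1 ((NN E).inv_mem hg) y).1 hy
      simpa using this
    have h := a.EW1 _ hy' w hw
    have h' : φ y (φ g w) = φ g (φ (g⁻¹ * y * g) w) := by
      rw [← MulAut.mul_apply, ← MulAut.mul_apply, ← map_mul, ← map_mul]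
      congr 2
      group
    rw [h', h]
  exact a.four e he e' he' h1 h2 h3 _ (key e he) (key e' he')

theorem leL (a : XFa φ s W H E ρ) (b : XFb H E T ρ) (c : XFc H E ρ)
    (h3 : pPrimeCore 2 X ≤ zpowers ρ) : H ⊓ C1 ρ ≤ layer X := by
  haveI hL : (layer X).Normal := H52.layer_normal
  have hn : ∀ (K : Subgroup X), H ≤ NN K → H ≤ NN (K ⊓ layer X) := by
    intro K hK h hh
    rw [mem_normalizer_iff]
    intro x
    constructor
    · rintro ⟨h1, h2⟩
      exact ⟨(mem_normalizer_iff.1 (hK hh) x).1 h1, hL.conj_mem _ h2 h⟩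
    · rintro ⟨h1, h2⟩
      refine ⟨(mem_normalizer_iff.1 (hK hh) x).2 h1, ?_⟩
      have := hL.conj_mem _ h2 h⁻¹
      simpa [mul_assoc] using this
  rcases c.nH (H ⊓ layer X) inf_le_left (hn H le_normalizer) with h | h
  swap
  · exact h.trans inf_le_right
  exfalso
  obtain ⟨P, hP⟩ := b.syl
  have hS := H8.isSylowIn_inf_normal P (layer X)
  rw [hP] at hS
  have hTE : T ⊓ layer X = E ⊓ layer X := by
    apply le_antisymm
    · rintro t ⟨h1, h2⟩
      exact ⟨TE b h1 (h ⟨b.TH h1, h2⟩), h2⟩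
    · exact inf_le_inf_right _ b.ET
  rw [hTE] at hS
  rcases c.irr (E ⊓ layer X) inf_le_left (inf_le_left.trans (hn E b.nE)) with h0 | h0
  · have hle : layer X ≤ zpowers ρ :=
      le_trans (H52.le_pPrimeCore_of_subnormal hL.isSubnormal (odd_of_syl hS h0)) h3
    refine notE b fun e he => cen1 b h3 ?_ (b.Eρ he)
    exact mem_centralizer_iff.2 fun l hl => (Ez b he (hle hl)).symm
  · rw [h0] at hS
    have hE := burn hS H52.commutator_layer_self fun g hg hN =>
      EzE b (h ⟨nEH a b hN, hg⟩)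
    exact notE b (by rw [hE]; exact bot_le)

theorem comp_mem (b : XFb H E T ρ) (c : XFc H E ρ) (h3 : pPrimeCore 2 X ≤ zpowers ρ)
    (hle : H ⊓ C1 ρ ≤ layer X) {e : X}
    (he : ∀ v ∈ E, T ⊓ C1 ρ ≤ C1 v → v = 1 ∨ v = e) {K : Subgroup X} (hK : IsComponent K) :
    e ∈ K := by
  haveI hL : (layer X).Normal := H52.layer_normal
  obtain ⟨P, hP⟩ := b.syl
  have hS := H8.isSylowIn_inf_normal P (layer X)
  rw [hP] at hS
  have hKL := H52.IsComponent.le_layer hK
  have hN := H52.IsComponent.layer_le_normalizer hK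
  have hS2 := hS.inf_of_le_normalizer hN
  rw [inf_eq_right.2 hKL] at hS2
  have hne : T ⊓ layer X ⊓ K ≠ ⊥ := by
    intro h0
    have h1 : K ≤ zpowers ρ :=
      le_trans (H52.le_pPrimeCore_of_subnormal hK.1 (odd_of_syl hS2 h0)) h3
    refine H52.IsComponent.not_le_centralizer hK fun x hx => mem_centralizer_iff.2 fun y hy => ?_
    obtain ⟨k, rfl⟩ := mem_zpowers_iff.1 (h1 hx)
    obtain ⟨m, hm⟩ := mem_zpowers_iff.1 (h1 hy)
    rw [← hm, ← zpow_add, ← zpow_add, add_comm]
  have hnorm : T ⊓ layer X ≤ normalizer ((T ⊓ layer X ⊓ K : Subgroup X) : Set X) := by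
    intro h hh
    rw [mem_normalizer_iff]
    intro x
    constructor
    · rintro ⟨h1, h2⟩
      exact ⟨(mem_normalizer_iff.1 (le_normalizer hh) x).1 h1,
        (mem_normalizer_iff.1 (hN hh.2) x).1 h2⟩
    · rintro ⟨h1, h2⟩
      exact ⟨(mem_normalizer_iff.1 (le_normalizer hh) x).2 h1,
        (mem_normalizer_iff.1 (hN hh.2) x).2 h2⟩
  have hc := H3.inf_centralizer_ne_bot_of_isPGroup hS.isPGroup hS2.isPGroup hnorm hne
  obtain ⟨⟨t, ht⟩, ht1⟩ := ne_bot_iff_exists_ne_one.1 hc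
  have ht1' : t ≠ 1 := fun h => ht1 (Subtype.ext h)
  obtain ⟨⟨⟨htT, htL⟩, htK⟩, htc⟩ := ht
  have hsub : T ⊓ C1 ρ ≤ T ⊓ layer X := fun x hx => ⟨hx.1, hle ⟨b.TH hx.1, hx.2⟩⟩
  have htE : t ∈ E := by
    refine TE b htT (c.cen ⟨b.TH htT, mem_centralizer_iff.2 fun y hy => ?_⟩)
    exact mem_centralizer_iff.1 htc y (hsub ⟨b.ET hy, b.Eρ hy⟩)
  rcases he t htE (fun x hx => mem_centralizer_singleton_iff.2
    (mem_centralizer_iff.1 htc x (hsub hx))) with h | h
  · exact absurd h ht1'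
  · rw [← h]; exact htK

theorem qsL (a : XFa φ s W H E ρ) (b : XFb H E T ρ) (c : XFc H E ρ)
    (h3 : pPrimeCore 2 X ≤ zpowers ρ) : IsQuasisimple (layer X) := by
  have hle := leL a b c h3
  have hc := cL b c h3
  obtain ⟨e, heE, he1, -, he⟩ := b.zT
  have hne : layer X ≠ ⊥ := by
    intro h0
    have : e ∈ layer X := hle ⟨b.TH (b.ET heE), b.Eρ heE⟩
    rw [h0, mem_bot] at this
    exact he1 this
  obtain ⟨K, hK⟩ := H52.layer_ne_bot_iff.1 hne
  have hKL : layer X = K := by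
    refine le_antisymm (H52.layer_le_iff.2 fun K' hK' => ?_) (H52.IsComponent.le_layer hK)
    by_contra hcon
    have hne' : K' ≠ K := fun h => hcon h.le
    have h0 := H52.IsComponent.commutator_eq_bot_of_ne hK' hK hne'
    have h1 := comp_mem b c h3 hle he hK
    have h2 := comp_mem b c h3 hle he hK'
    have h4 : e ∈ K ⊓ centralizer (K : Set X) :=
      ⟨h1, mem_centralizer_iff.2 fun y hy =>
        (H52.commutator_eq_bot_iff_forall.1 h0 e h2 y hy).symm⟩
    have h5 := (H52.IsComponent.center_le_center_layer hK h4).2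
    exact he1 (pow_triv b.ρ3 (hc h5) (powT b (b.ET heE)))
  rw [hKL]
  exact hK.2

end Main

theorem xc (x3 : X3Stmt.{u}) : XcStmt.{u} := by
  intro X A _ _ _ _ φ s W H E T ρ h
  have h3 := x3 X A φ s W H E T ρ h
  exact ⟨layer X, H52.layer_normal, qsL h.toXFa h.toXFb h.toXFc h3,
    leL h.toXFa h.toXFb h.toXFc h3, cL h.toXFb h.toXFc h3⟩

end Cfsg.Agent.H34.RfXc
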