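import Cfsg.Agent.H74.UVDefs
import Cfsg.Agent.H30.UgAb

/-! Project UV: abelian groups normalised by a field element of prime order (piece UV-AB). -/

set_option autoImplicit false

namespace Cfsg.Agent.H34.UvAb

open Module Cfsg.Agent.H77.Sg Cfsg.Agent.H74.UV
open Cfsg.Agent.H30.UgAb (nrm key)

universe u

theorem ab : AbStmt.{u} := by
  intro E K _ _ _ _ _ A r l s h7 hr hl _ _ hs hsE hA hc hn b hb
  classical
  have : Finite (K ≃ₗ[E] K) := Finite.of_injective _ DFunLike.coe_injective
  have := Fintype.ofFinite A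
  have := Fact.mk hr
  have hs1 : s ^ l = 1 := hs ▸ pow_orderOf_eq_one s
  have hS : mulH E K s ^ l = 1 := by rw [← map_pow, hs1, map_one]
  by_cases hrE : (r : E) = 0
  · have := Fintype.ofFinite E
    have hK : r ∣ Nat.card K := by
      rw [Module.natCard_eq_pow_finrank (K := E), h7, Nat.card_eq_fintype_card]
      exact ((prime_dvd_char_iff_dvd_card r).1 ((ringChar.spec E r).1 hrE |>.elim fun c hc' => by
        have hp : (ringChar E).Prime := CharP.char_is_prime E _
        rw [(Nat.prime_dvd_prime_iff_eq hp hr).1 ⟨c, hc'⟩])).trans (dvd_pow_self _ (by norm_num))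
    obtain ⟨x, hx, hx0⟩ := hA.exists_fixed_point_of_prime_dvd_card_of_fixed_point K hK
      (a := 0) (fun a => map_zero a.1)
    let R : Subalgebra E K :=
      { carrier := {k | ∀ x, (∀ a ∈ A, a x = x) → ∀ a ∈ A, a (k * x) = k * x}
        mul_mem' := fun {k k'} hk hk' x hx => by
          rw [mul_assoc]; exact hk _ (hk' x hx)
        add_mem' := fun {k k'} hk hk' x hx a ha => by
          rw [add_mul, map_add, hk x hx a ha, hk' x hx a ha]
        algebraMap_mem' := fun c x hx a ha => by
          rw [← Algebra.smul_def, map_smul, hx a ha] }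
    have hR : R = ⊤ := H51.SgKit.sub_top (by rw [h7]; norm_num) R hsE fun x hx a ha => by
      have h1 := hx _ (nrm A hn (l - 1) a ha)
      have h2 : mulH E K s ^ (l - 1) = (mulH E K s)⁻¹ :=
        eq_inv_of_mul_eq_one_left (by rw [← pow_succ, Nat.sub_add_cancel hl.pos, hS])
      rw [h2, inv_inv] at h1
      have h3 := congrArg (mulH E K s) h1
      rw [← LinearEquiv.mul_apply, ← mul_assoc, ← mul_assoc, mul_inv_cancel, one_mul] at h3
      exact h3
    have hb1 : b = 1 := LinearEquiv.ext fun y => by
      have h1 : y / x ∈ R := hR ▸ Algebra.mem_top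
      have h2 := h1 x (fun a ha => hx ⟨a, ha⟩) b hb
      rwa [div_mul_cancel₀ _ hx0.symm] at h2
    rw [hb1, mul_one, one_mul]
  · let ρ : (K ≃ₗ[E] K) →* Module.End E K := LinearEquiv.automorphismGroup.toLinearMapMonoidHom
    have hs0 : (s : K) ≠ 1 := fun h => hsE (h ▸ Submodule.mem_span_singleton_self _)
    have h0 : ∑ i ∈ Finset.range l, ρ (mulH E K s ^ i) = 0 := LinearMap.ext fun x => by
      have h1 : ∑ i ∈ Finset.range l, (s : K) ^ i = 0 := by
        have := mul_geom_sum (s : K) l
        rw [← Units.val_pow_eq_pow_val, hs1, Units.val_one, sub_self] at this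
        exact (mul_eq_zero.1 this).resolve_left (sub_ne_zero.2 hs0)
      rw [LinearMap.sum_apply, LinearMap.zero_apply, ← zero_mul x, ← h1, Finset.sum_mul]
      refine Finset.sum_congr rfl fun i _ => ?_
      rw [← map_pow, ← Units.val_pow_eq_pow_val]
      rfl
    have h1 := key ρ A hc hn hl hS h0 hb
    obtain ⟨n, hn'⟩ := IsPGroup.iff_card.1 hA
    have h2 : ((Fintype.card A : ℕ) : E) ≠ 0 := by
      rw [← Nat.card_eq_fintype_card, hn', Nat.cast_pow]; exact pow_ne_zero _ hrE
    have h3 : b * mulH E K s * b⁻¹ * (mulH E K s)⁻¹ = 1 := LinearEquiv.ext fun x => by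
      have h4 := LinearMap.congr_fun h1 x
      rw [Module.End.mul_apply, Module.End.natCast_apply, ← Nat.cast_smul_eq_nsmul E, map_smul] at h4
      exact smul_right_injective K h2 h4
    rw [mul_inv_eq_one, mul_inv_eq_iff_eq_mul] at h3
    exact h3.symm

end Cfsg.Agent.H34.UvAb
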